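import Mathlib
import Cfsg.Agent.S0270
import Cfsg.Agent.S0245
import Cfsg.Agent.S0246
import Cfsg.Agent.Helper17.L27.IsoGen
import Cfsg.Agent.Helper17.L27.Conc
import Cfsg.Agent.Helper17.TCD.U42_Chk
import Cfsg.Agent.Helper17.U42.Data

/-!
# `PSp₄(3)` is generated by two elements satisfying the relations of `U₄(2)` (helper17)
-/

set_option autoImplicit false

namespace Cfsg.Agent.Helper17.U42

open Matrix Cfsg.Agent.Helper17.J1 Cfsg.Agent.Helper17.L27 Cfsg.Agent.Helper17.TC
  Cfsg.Agent.Helper17

/-! ### General lemmas -/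

theorem map_ev4 {M N : Type*} [Monoid M] [Monoid N] (f : M →* N) (m0 m1 m2 m3 : M)
    (w : List ℕ) : f (ev4 m0 m1 m2 m3 w) = ev4 (f m0) (f m1) (f m2) (f m3) w := by
  unfold ev4
  rw [map_list_prod, List.map_map]
  congr 1
  apply List.map_congr_left
  intro l _
  rcases l with _ | _ | _ | _ | l <;> simp [cols4]

theorem ev4_mem_closure {K : Type*} [Group K] (a b : K) (w : List ℕ) :
    ev4 a a⁻¹ b b⁻¹ w ∈ Subgroup.closure ({a, b} : Set K) := by
  have ha : a ∈ Subgroup.closure ({a, b} : Set K) := Subgroup.subset_closure (by simp)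
  have hb : b ∈ Subgroup.closure ({a, b} : Set K) := Subgroup.subset_closure (by simp)
  unfold ev4
  apply Subgroup.list_prod_mem
  intro x hx
  rw [List.mem_map] at hx
  obtain ⟨l, -, rfl⟩ := hx
  rcases l with _ | _ | _ | _ | l
  · exact ha
  · exact Subgroup.inv_mem _ ha
  · exact hb
  · exact Subgroup.inv_mem _ hb
  · exact Subgroup.one_mem _

theorem nodup_map_index {α β : Type*} (l : List α) (F : α → β) (h : (l.map F).Nodup)
    (i i' : Fin l.length) (e : F l[i] = F l[i']) : i = i' := by
  have hi : i.val < (l.map F).length := by rw [List.length_map]; exact i.isLt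
  have hi' : i'.val < (l.map F).length := by rw [List.length_map]; exact i'.isLt
  have h1 : (l.map F)[i.val] = (l.map F)[i'.val] := by
    rw [List.getElem_map, List.getElem_map]; exact e
  exact Fin.ext ((h.getElem_inj_iff).1 h1)

/-- a chain of three transversals inside a subgroup bounds its order from below -/
theorem chain3 {G X : Type*} [Group G] (H : Subgroup G) [Finite H] (act : G → X → X)
    (hact : ∀ g h x, act (g * h) x = act g (act h x)) (c : X → ℕ)
    (A1 A2 A3 : List G) (v w u : X)
    (hH1 : ∀ g ∈ A1, g ∈ H) (hH2 : ∀ g ∈ A2, g ∈ H) (hH3 : ∀ g ∈ A3, g ∈ H)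
    (h1 : (A1.map fun g => c (act g v)).Nodup)
    (h2 : ∀ s ∈ A2, act s v = v) (h2' : (A2.map fun g => c (act g w)).Nodup)
    (h3 : ∀ t ∈ A3, act t v = v ∧ act t w = w) (h3' : (A3.map fun g => c (act g u)).Nodup) :
    A1.length * A2.length * A3.length ≤ Nat.card H := by
  let f : Fin A1.length × Fin A2.length × Fin A3.length → H := fun p =>
    ⟨A1[p.1] * A2[p.2.1] * A3[p.2.2], H.mul_mem (H.mul_mem (hH1 _ (List.getElem_mem _))
      (hH2 _ (List.getElem_mem _))) (hH3 _ (List.getElem_mem _))⟩
  have hf : Function.Injective f := by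
    rintro ⟨i, j, k⟩ ⟨i', j', k'⟩ h
    have h' : A1[i] * A2[j] * A3[k] = A1[i'] * A2[j'] * A3[k'] := congrArg Subtype.val h
    have e1 : ∀ (i : Fin A1.length) (j : Fin A2.length) (k : Fin A3.length),
        act (A1[i] * A2[j] * A3[k]) v = act A1[i] v := by
      intro i j k
      rw [hact, hact, (h3 A3[k] (List.getElem_mem k.isLt)).1, h2 A2[j] (List.getElem_mem j.isLt)]
    have hi : i = i' := by
      apply nodup_map_index A1 (fun g => c (act g v)) h1
      show c (act A1[i] v) = c (act A1[i'] v)
      rw [← e1 i j k, ← e1 i' j' k', h']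
    subst hi
    have h'' : A2[j] * A3[k] = A2[j'] * A3[k'] := by
      rw [mul_assoc, mul_assoc] at h'
      exact mul_left_cancel h'
    have e2 : ∀ (j : Fin A2.length) (k : Fin A3.length),
        act (A2[j] * A3[k]) w = act A2[j] w := by
      intro j k
      rw [hact, (h3 A3[k] (List.getElem_mem k.isLt)).2]
    have hj : j = j' := by
      apply nodup_map_index A2 (fun g => c (act g w)) h2'
      show c (act A2[j] w) = c (act A2[j'] w)
      rw [← e2 j k, ← e2 j' k', h'']
    subst hj
    have h''' : A3[k] = A3[k'] := mul_left_cancel h''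
    have hk : k = k' := by
      apply nodup_map_index A3 (fun g => c (act g u)) h3'
      show c (act A3[k] u) = c (act A3[k'] u)
      rw [h''']
    subst hk
    rfl
  have hcard := Nat.card_le_card_of_injective f hf
  simp only [Nat.card_prod, Nat.card_fin] at hcard
  rw [mul_assoc]
  exact hcard

/-- a subgroup of small index in a simple group is everything -/
theorem eq_top_of_index_le {G : Type*} [Group G] [Finite G] [IsSimpleGroup G] (H : Subgroup G)
    (k : ℕ) (hk : H.index ≤ k) (hG : k.factorial < Nat.card G) : H = ⊤ := by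
  by_contra hne
  have hker := Subgroup.normalCore_eq_ker H
  rcases (MonoidHom.normal_ker (MulAction.toPermHom G (G ⧸ H))).eq_bot_or_eq_top with h | h
  · have hinj : Function.Injective (MulAction.toPermHom G (G ⧸ H)) :=
      (MonoidHom.ker_eq_bot_iff _).1 h
    have h1 := Nat.card_le_card_of_injective _ hinj
    rw [Nat.card_perm] at h1
    have h2 : (Nat.card (G ⧸ H)).factorial ≤ k.factorial := Nat.factorial_le hk
    omega
  · rw [← hker] at h
    exact hne (top_le_iff.1 (h ▸ Subgroup.normalCore_le H))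

/-- a group generated by `a`, `b` with the relations of `U₄(2)` has order at most 25920 -/
theorem card_le_U42 {K : Type*} [Group K] (a b : K)
    (hgen : Subgroup.closure ({a, b} : Set K) = ⊤)
    (hR : ∀ r ∈ TCD.U42.relsL, ev a b r = 1) : Finite K ∧ Nat.card K ≤ 25920 := by
  have hsub : ∀ w ∈ TCD.U42.cert.subs, (w.map (cols a b)).prod ∈ Subgroup.zpowers b := by
    intro w hw
    have hw' : w ∈ [[2]] := hw
    simp only [List.mem_cons, List.not_mem_nil, or_false] at hw'
    subst hw'
    have e : ([2].map (cols a b)).prod = b := by simp [cols]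
    rw [e]
    exact Subgroup.mem_zpowers _
  obtain ⟨hfin, hle⟩ := index_le (c := TCD.U42.cert) (Subgroup.zpowers b) (cols a b)
    TCD.U42.checked (cols_gen' a b hgen) (cols_ginv' a b) hR hsub
  have hle' : (Subgroup.zpowers b).index ≤ 5184 := hle
  have hb5 : b ^ 5 = 1 := by
    have := hR [2, 2, 2, 2, 2] (by simp [TCD.U42.relsL])
    simpa [ev, cols, pow_succ, mul_assoc] using this
  have h3 : Nat.card (Subgroup.zpowers b) ≤ 5 := by
    rw [Nat.card_zpowers]
    exact orderOf_le_of_pow_eq_one (by norm_num) hb5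
  have h3' : Nat.card (Subgroup.zpowers b) ≠ 0 := by
    rw [Nat.card_zpowers]
    exact (orderOf_pos_iff.2 (isOfFinOrder_iff_pow_eq_one.2 ⟨5, by norm_num, hb5⟩)).ne'
  have h4 : (Subgroup.zpowers b).index ≠ 0 := by
    rw [Subgroup.index]
    exact Nat.card_pos.ne'
  have hc := Subgroup.card_mul_index (Subgroup.zpowers b)
  have hK : Nat.card K ≠ 0 := by rw [← hc]; exact Nat.mul_ne_zero h3' h4
  refine ⟨Nat.finite_of_card_ne_zero hK, ?_⟩
  rw [← hc]
  calc Nat.card (Subgroup.zpowers b) * (Subgroup.zpowers b).index ≤ 5 * 5184 :=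
        Nat.mul_le_mul h3 hle'
    _ = 25920 := by norm_num

/-! ### Computations in `Sp₄(3)` -/

/-- the value of a word, as a matrix -/
def E3 (w : List ℕ) : M3 := ev4 Am Aim Bm Bim w

theorem Am_mem : Am ∈ Matrix.symplecticGroup (Fin 2) (ZMod 3) := by
  rw [SymplecticGroup.mem_iff]; decide +kernel

theorem Aim_mem : Aim ∈ Matrix.symplecticGroup (Fin 2) (ZMod 3) := by
  rw [SymplecticGroup.mem_iff]; decide +kernel

theorem Bm_mem : Bm ∈ Matrix.symplecticGroup (Fin 2) (ZMod 3) := by
  rw [SymplecticGroup.mem_iff]; decide +kernel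

theorem Bim_mem : Bim ∈ Matrix.symplecticGroup (Fin 2) (ZMod 3) := by
  rw [SymplecticGroup.mem_iff]; decide +kernel

theorem inv3m : Am * Aim = 1 ∧ Bm * Bim = 1 := by decide +kernel

set_option maxRecDepth 100000 in
theorem rel3m : ∀ r ∈ TCD.U42.relsL, E3 r = 1 ∨ E3 r = -1 := by decide +kernel

set_option maxRecDepth 100000 in
theorem chain1 : L1.map (fun w => code (E3 w *ᵥ v0)) = C1 := by decide +kernel

set_option maxRecDepth 100000 in
theorem chain2a : ∀ w ∈ L2, E3 w *ᵥ v0 = v0 := by decide +kernel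

set_option maxRecDepth 100000 in
theorem chain2b : L2.map (fun w => code (E3 w *ᵥ w0)) = C2 := by decide +kernel

set_option maxRecDepth 100000 in
theorem chain3a : ∀ w ∈ L3, E3 w *ᵥ v0 = v0 ∧ E3 w *ᵥ w0 = w0 := by decide +kernel

set_option maxRecDepth 100000 in
theorem chain3b : L3.map (fun w => code (E3 w *ᵥ u0)) = C3 := by decide +kernel

theorem nodupC : C1.Nodup ∧ C2.Nodup ∧ C3.Nodup := by decide +kernel

theorem lens : L1.length = 80 ∧ L2.length = 27 ∧ L3.length = 8 := by decide

end Cfsg.Agent.Helper17.U42
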