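import Mathlib
import Cfsg.Agent.S0280
import Cfsg.Agent.Helper4.F4
import Cfsg.Agent.Helper17.L27.Conc
import Cfsg.Agent.Helper17.TCD.U42_Chk
import Cfsg.Agent.Helper17.U42.SpSide
import Cfsg.Agent.Helper17.U42.Data

/-!
# `PSU₄(2)`: two elements with the relations of `U₄(2)` (helper17)

The lemmas `herm_of_gram4` … `comm_of_Phi4_one` are the degree 4 versions of helper4's lemmas
for degree 3 (in `Cfsg/Agent/S0827.lean`).
-/

set_option autoImplicit false

namespace Cfsg.Agent.Helper17.U42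

open Matrix Cfsg.Agent.Helper4 Cfsg.Agent.Helper17.J1 Cfsg.Agent.Helper17.L27

theorem det_Uam : Uam.det = 1 := by decide +kernel

theorem det_Ubm : Ubm.det = 1 := by decide +kernel

theorem det_Ubim : Ubim.det = 1 := by decide +kernel

theorem gram_Ua : ∀ a b : Fin 4, ∑ i, Uam i a * Uam i b ^ 2 = if a = b then 1 else 0 := by
  decide +kernel

theorem gram_Ub : ∀ a b : Fin 4, ∑ i, Ubm i a * Ubm i b ^ 2 = if a = b then 1 else 0 := by
  decide +kernel

theorem gram_Ubi : ∀ a b : Fin 4, ∑ i, Ubim i a * Ubim i b ^ 2 = if a = b then 1 else 0 := by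
  decide +kernel

def UaS : Matrix.SpecialLinearGroup (Fin 4) F4 := ⟨Uam, det_Uam⟩
def UbS : Matrix.SpecialLinearGroup (Fin 4) F4 := ⟨Ubm, det_Ubm⟩
def UbiS : Matrix.SpecialLinearGroup (Fin 4) F4 := ⟨Ubim, det_Ubim⟩

theorem invU : Uam * Uam = 1 ∧ Ubm * Ubim = 1 := by decide +kernel

set_option maxRecDepth 100000 in
theorem relU : ∀ r ∈ TCD.U42.relsL, ev4 Uam Uam Ubm Ubim r = 1 := by decide +kernel

theorem ncU : Uam * Ubm ≠ Ubm * Uam := by decide +kernel

noncomputable section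

variable {F : Type*} [Field F]

theorem herm_of_gram4 (h2 : (2 : F) = 0) {n : ℕ} (A : Matrix (Fin n) (Fin n) F)
    (hA : ∀ a b, ∑ i, A i a * A i b ^ 2 = if a = b then 1 else 0) (u v : Fin n → F) :
    Cfsg.hermForm n F 2 (A.mulVec u) (A.mulVec v) = Cfsg.hermForm n F 2 u v := by
  unfold Cfsg.hermForm
  have hsq : ∀ (f : Fin n → F), (∑ b, f b) ^ 2 = ∑ b, f b ^ 2 := by
    intro f
    have key : ∀ s : Finset (Fin n), (∑ b ∈ s, f b) ^ 2 = ∑ b ∈ s, f b ^ 2 := by
      intro s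
      induction s using Finset.induction_on with
      | empty => simp
      | insert a s ha ih =>
        rw [Finset.sum_insert ha, Finset.sum_insert ha, add_sq, ih]
        have h0 : 2 * f a * ∑ b ∈ s, f b = 0 := by rw [h2]; ring
        rw [h0, add_zero]
    exact key Finset.univ
  calc ∑ i, (A.mulVec u) i * ((A.mulVec v) i) ^ 2
      = ∑ i, (∑ a, A i a * u a) * (∑ b, (A i b) ^ 2 * (v b) ^ 2) := by
        refine Finset.sum_congr rfl fun i _ => ?_
        show (∑ a, A i a * u a) * (∑ b, A i b * v b) ^ 2 = _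
        rw [hsq]
        congr 1
        exact Finset.sum_congr rfl fun b _ => mul_pow _ _ _
    _ = ∑ i, ∑ a, ∑ b, u a * (v b) ^ 2 * (A i a * (A i b) ^ 2) := by
        refine Finset.sum_congr rfl fun i _ => ?_
        rw [Finset.sum_mul]
        refine Finset.sum_congr rfl fun a _ => ?_
        rw [Finset.mul_sum]
        refine Finset.sum_congr rfl fun b _ => ?_
        ring
    _ = ∑ a, ∑ b, u a * (v b) ^ 2 * ∑ i, (A i a * (A i b) ^ 2) := by
        rw [Finset.sum_comm]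
        refine Finset.sum_congr rfl fun a _ => ?_
        rw [Finset.sum_comm]
        refine Finset.sum_congr rfl fun b _ => ?_
        rw [Finset.mul_sum]
    _ = ∑ a, u a * (v a) ^ 2 := by
        refine Finset.sum_congr rfl fun a _ => ?_
        rw [Finset.sum_eq_single a]
        · rw [hA a a, if_pos rfl, mul_one]
        · intro b _ hb
          rw [hA a b, if_neg (Ne.symm hb), mul_zero]
        · intro h; exact absurd (Finset.mem_univ a) h

theorem mem_SU4 (h2 : (2 : F) = 0) (ψ : F4 →+* F) (M : Matrix.SpecialLinearGroup (Fin 4) F4)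
    (hM : ∀ a b : Fin 4, ∑ i, M.1 i a * M.1 i b ^ 2 = if a = b then 1 else 0) :
    Matrix.SpecialLinearGroup.map ψ M ∈ Cfsg.SU 4 F 2 := by
  have hA : ∀ a b : Fin 4, ∑ i, (Matrix.SpecialLinearGroup.map ψ M).1 i a *
      (Matrix.SpecialLinearGroup.map ψ M).1 i b ^ 2 = if a = b then 1 else 0 := by
    intro a b
    have h1 : ∑ i, (Matrix.SpecialLinearGroup.map ψ M).1 i a *
        (Matrix.SpecialLinearGroup.map ψ M).1 i b ^ 2 = ψ (∑ i, M.1 i a * M.1 i b ^ 2) := by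
      rw [map_sum]
      refine Finset.sum_congr rfl fun i _ => ?_
      rw [map_mul, map_pow]
      rfl
    rw [h1, hM a b]
    split_ifs
    · exact map_one ψ
    · exact map_zero ψ
  show ∀ u v : Fin 4 → F, Cfsg.hermForm 4 F 2
    ((Matrix.SpecialLinearGroup.map ψ M).1.mulVec u)
    ((Matrix.SpecialLinearGroup.map ψ M).1.mulVec v) = Cfsg.hermForm 4 F 2 u v
  intro u v
  exact herm_of_gram4 h2 _ hA u v

/-- the elements of `SL₃(F4)` whose image lies in `SU₃` -/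
def U4g (ψ : F4 →+* F) : Subgroup (Matrix.SpecialLinearGroup (Fin 4) F4) :=
  (Cfsg.SU 4 F 2).comap (Matrix.SpecialLinearGroup.map ψ)

def tau4 (ψ : F4 →+* F) : U4g ψ →* Cfsg.SU 4 F 2 :=
  (Matrix.SpecialLinearGroup.map ψ).subgroupComap (Cfsg.SU 4 F 2)

def Phi4 (ψ : F4 →+* F) : U4g ψ →* Cfsg.PSU 4 F 2 :=
  (QuotientGroup.mk' (Subgroup.center (Cfsg.SU 4 F 2))).comp (tau4 ψ)

theorem tau4_inj (ψ : F4 →+* F) : Function.Injective (tau4 ψ) := by
  intro a b h
  have h1 : Matrix.SpecialLinearGroup.map ψ a.1 = Matrix.SpecialLinearGroup.map ψ b.1 :=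
    congrArg Subtype.val h
  apply Subtype.ext
  apply Subtype.ext
  ext i j
  have h3 := congrFun (congrFun (congrArg Subtype.val h1) i) j
  exact ψ.injective h3

theorem comm_of_Phi4_one (ψ : F4 →+* F) (a : U4g ψ) (ha : Phi4 ψ a = 1) (b : U4g ψ) :
    a * b = b * a := by
  have h1 : tau4 ψ a ∈ Subgroup.center (Cfsg.SU 4 F 2) := by
    have h : ((tau4 ψ a : Cfsg.SU 4 F 2) : Cfsg.PSU 4 F 2) = 1 := ha
    exact (QuotientGroup.eq_one_iff _).1 h
  have h3 := Subgroup.mem_center_iff.1 h1 (tau4 ψ b)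
  rw [← map_mul, ← map_mul] at h3
  exact (tau4_inj ψ h3).symm


/-- the underlying matrix -/
def kappa (ψ : F4 →+* F) : U4g ψ →* Matrix (Fin 4) (Fin 4) F4 where
  toFun x := x.1.1
  map_one' := rfl
  map_mul' _ _ := rfl

theorem kappa_inj (ψ : F4 →+* F) : Function.Injective (kappa ψ) :=
  fun _ _ h => Subtype.ext (Subtype.ext h)

variable (h2 : (2 : F) = 0) (ψ : F4 →+* F)

def ua : U4g ψ := ⟨UaS, mem_SU4 h2 ψ UaS gram_Ua⟩
def ub : U4g ψ := ⟨UbS, mem_SU4 h2 ψ UbS gram_Ub⟩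
def ubi : U4g ψ := ⟨UbiS, mem_SU4 h2 ψ UbiS gram_Ubi⟩

theorem ua_mul : ua h2 ψ * ua h2 ψ = 1 := kappa_inj ψ invU.1

theorem ub_mul : ub h2 ψ * ubi h2 ψ = 1 := kappa_inj ψ invU.2

end

section main

variable {F : Type*} [Field F] [Fintype F]

theorem card_psu42 (hF : Fintype.card F = 4) : Nat.card (Cfsg.PSU 4 F 2) = 25920 := by
  have h := Cfsg.Agent.S0280.result (F := F) (q := 2) (by rw [hF]; norm_num) 4 (by norm_num)
  have e : (2 : ℕ) ^ (4 * (4 - 1) / 2) * ∏ i ∈ Finset.range 4,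
      (if Even i then 2 ^ (i + 1) + 1 else 2 ^ (i + 1) - 1) = 77760 := by decide
  rw [e] at h
  have g : Nat.gcd 4 (2 + 1) = 1 := by decide
  rw [g] at h
  omega

/-- `PSU₄(2)` has two elements, not both trivial, with the relations of `U₄(2)` -/
theorem su_side (hF : Fintype.card F = 4) :
    ∃ a b : Cfsg.PSU 4 F 2, (∀ r ∈ TCD.U42.relsL, ev a b r = 1) ∧ (a ≠ 1 ∨ b ≠ 1) := by
  have h2 : (2 : F) = 0 := two_eq_zero_of_card hF
  obtain ⟨ψ⟩ : Nonempty (F4 →+* F) := ⟨((toF4 hF).symm : F4 ≃+* F).toRingHom⟩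
  refine ⟨Phi4 ψ (ua h2 ψ), Phi4 ψ (ub h2 ψ), ?_, Or.inl ?_⟩
  · intro r hr
    have ia : Phi4 ψ (ua h2 ψ) * Phi4 ψ (ua h2 ψ) = 1 := by
      rw [← map_mul, ua_mul, map_one]
    have ib : Phi4 ψ (ub h2 ψ) * Phi4 ψ (ubi h2 ψ) = 1 := by
      rw [← map_mul, ub_mul, map_one]
    rw [ev_eq_map_ev4 (Phi4 ψ) (ua h2 ψ) (ua h2 ψ) (ub h2 ψ) (ubi h2 ψ) ia ib]
    have h1 : ev4 (ua h2 ψ) (ua h2 ψ) (ub h2 ψ) (ubi h2 ψ) r = 1 := by
      apply kappa_inj ψ
      rw [map_ev4, map_one]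
      exact relU r hr
    rw [h1, map_one]
  · intro h
    have hc := comm_of_Phi4_one ψ _ h (ub h2 ψ)
    exact ncU (congrArg (kappa ψ) hc)

end main

end Cfsg.Agent.Helper17.U42
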