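import Mathlib
import Cfsg.Agent.Helper17.U42.SpSide

/-!
# `PSp₄(3)`: generators with the relations of `U₄(2)` (helper17)
-/

set_option autoImplicit false

namespace Cfsg.Agent.Helper17.U42

open Matrix Cfsg.Agent.Helper17.J1 Cfsg.Agent.Helper17.L27 Cfsg.Agent.Helper17.TC
  Cfsg.Agent.Helper17

/-- `Sp₄(3)` -/
abbrev S3 : Type := Matrix.symplecticGroup (Fin 2) (ZMod 3)

def A3 : S3 := ⟨Am, Am_mem⟩
def A3i : S3 := ⟨Aim, Aim_mem⟩
def B3 : S3 := ⟨Bm, Bm_mem⟩
def B3i : S3 := ⟨Bim, Bim_mem⟩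

theorem inv3 : A3 * A3i = 1 ∧ B3 * B3i = 1 := ⟨Subtype.ext inv3m.1, Subtype.ext inv3m.2⟩

theorem A3i_eq : A3⁻¹ = A3i := inv_eq_of_mul_eq_one_right inv3.1

theorem B3i_eq : B3⁻¹ = B3i := inv_eq_of_mul_eq_one_right inv3.2

/-- the value of a word in `Sp₄(3)` -/
def W3 (w : List ℕ) : S3 := ev4 A3 A3i B3 B3i w

theorem W3_val (w : List ℕ) : (W3 w).1 = E3 w :=
  map_ev4 (Matrix.symplecticGroup (Fin 2) (ZMod 3)).subtype A3 A3i B3 B3i w

theorem W3_mem (w : List ℕ) : W3 w ∈ Subgroup.closure ({A3, B3} : Set S3) := by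
  have h := ev4_mem_closure A3 B3 w
  rwa [A3i_eq, B3i_eq] at h

/-- the action on vectors -/
def act3 (g : S3) (x : V3) : V3 := g.1 *ᵥ x

theorem act3_mul (g h : S3) (x : V3) : act3 (g * h) x = act3 g (act3 h x) := by
  show (g.1 * h.1) *ᵥ x = g.1 *ᵥ (h.1 *ᵥ x)
  rw [Matrix.mulVec_mulVec]

theorem card_S3 : Nat.card S3 = 51840 := by
  have h := Cfsg.Agent.S0245.result (F := ZMod 3) (q := 3) (ZMod.card 3) 2
  rw [h]
  decide

instance finite_S3 : Finite S3 := Nat.finite_of_card_ne_zero (by rw [card_S3]; norm_num)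

theorem card_closure_ge : 17280 ≤ Nat.card (Subgroup.closure ({A3, B3} : Set S3)) := by
  have h := chain3 (Subgroup.closure ({A3, B3} : Set S3)) act3 act3_mul code
    (L1.map W3) (L2.map W3) (L3.map W3) v0 w0 u0 ?_ ?_ ?_ ?_ ?_ ?_ ?_ ?_
  · rw [List.length_map, List.length_map, List.length_map, lens.1, lens.2.1, lens.2.2] at h
    exact h
  · intro g hg
    obtain ⟨w, -, rfl⟩ := List.mem_map.1 hg
    exact W3_mem w
  · intro g hg
    obtain ⟨w, -, rfl⟩ := List.mem_map.1 hg
    exact W3_mem w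
  · intro g hg
    obtain ⟨w, -, rfl⟩ := List.mem_map.1 hg
    exact W3_mem w
  · rw [List.map_map]
    have e : (fun g => code (act3 g v0)) ∘ W3 = fun w => code (E3 w *ᵥ v0) := by
      funext w
      show code ((W3 w).1 *ᵥ v0) = _
      rw [W3_val]
    rw [e, chain1]
    exact nodupC.1
  · intro g hg
    obtain ⟨w, hw, rfl⟩ := List.mem_map.1 hg
    show (W3 w).1 *ᵥ v0 = v0
    rw [W3_val]
    exact chain2a w hw
  · rw [List.map_map]
    have e : (fun g => code (act3 g w0)) ∘ W3 = fun w => code (E3 w *ᵥ w0) := by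
      funext w
      show code ((W3 w).1 *ᵥ w0) = _
      rw [W3_val]
    rw [e, chain2b]
    exact nodupC.2.1
  · intro g hg
    obtain ⟨w, hw, rfl⟩ := List.mem_map.1 hg
    show (W3 w).1 *ᵥ v0 = v0 ∧ (W3 w).1 *ᵥ w0 = w0
    rw [W3_val]
    exact chain3a w hw
  · rw [List.map_map]
    have e : (fun g => code (act3 g u0)) ∘ W3 = fun w => code (E3 w *ᵥ u0) := by
      funext w
      show code ((W3 w).1 *ᵥ u0) = _
      rw [W3_val]
    rw [e, chain3b]
    exact nodupC.2.2

section spmap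

variable {R R' : Type*} [CommRing R] [CommRing R']

theorem J_map (e : R →+* R') : e.mapMatrix (Matrix.J (Fin 2) R) = Matrix.J (Fin 2) R' := by
  ext i j
  rcases i with i | i <;> rcases j with j | j <;>
    simp [Matrix.J, RingHom.mapMatrix_apply, Matrix.one_apply]

/-- the map of symplectic groups induced by a ring homomorphism -/
def spMap (e : R →+* R') :
    Matrix.symplecticGroup (Fin 2) R →* Matrix.symplecticGroup (Fin 2) R' where
  toFun A := ⟨e.mapMatrix A.1, by
    rw [SymplecticGroup.mem_iff]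
    have h := SymplecticGroup.mem_iff.1 A.2
    have h' := congrArg e.mapMatrix h
    rw [map_mul, map_mul, J_map e] at h'
    have hT : e.mapMatrix A.1ᵀ = (e.mapMatrix A.1)ᵀ := by
      rw [RingHom.mapMatrix_apply, RingHom.mapMatrix_apply, Matrix.transpose_map]
    rw [hT] at h'
    exact h'⟩
  map_one' := Subtype.ext (map_one e.mapMatrix)
  map_mul' A B := Subtype.ext (map_mul e.mapMatrix A.1 B.1)

theorem spMap_surj (e : R ≃+* R') : Function.Surjective (spMap (e : R →+* R')) := by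
  intro B
  refine ⟨spMap (e.symm : R' →+* R) B, Subtype.ext ?_⟩
  show (e : R →+* R').mapMatrix ((e.symm : R' →+* R).mapMatrix B.1) = B.1
  ext i j
  simp [RingHom.mapMatrix_apply]

end spmap

section main

variable {K : Type*} [Field K] [Fintype K]

/-- from `Sp₄(3)` to `PSp₄(K)` -/
def phi3 (e : ZMod 3 →+* K) : S3 →* Cfsg.PSp 2 K :=
  (QuotientGroup.mk' (Subgroup.center (Matrix.symplecticGroup (Fin 2) K))).comp (spMap e)

omit [Fintype K] in
theorem phi3_eq_one (e : ZMod 3 →+* K) (W : S3) (h : W.1 = 1 ∨ W.1 = -1) : phi3 e W = 1 := by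
  apply (QuotientGroup.eq_one_iff _).2
  rw [Subgroup.mem_center_iff]
  intro g
  apply Subtype.ext
  show g.1 * e.mapMatrix W.1 = e.mapMatrix W.1 * g.1
  rcases h with h | h
  · rw [h, map_one, mul_one, one_mul]
  · rw [h, map_neg, map_one, mul_neg, neg_mul, mul_one, one_mul]

theorem card_psp43 (hK : Fintype.card K = 3) : Nat.card (Cfsg.PSp 2 K) = 25920 := by
  have h1 := Cfsg.Agent.S0245.result (F := K) hK 2
  have h2 := Cfsg.Agent.S0246.result (F := K) hK 2 (by norm_num)
  have h3 := Subgroup.card_eq_card_quotient_mul_card_subgroup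
    (Subgroup.center (Matrix.symplecticGroup (Fin 2) K))
  rw [h1, h2] at h3
  have e1 : 3 ^ (2 ^ 2) * ∏ i ∈ Finset.range 2, (3 ^ (2 * (i + 1)) - 1) = 51840 := by decide
  have e2 : Nat.gcd 2 (3 - 1) = 2 := by decide
  rw [e1, e2] at h3
  show Nat.card (Matrix.symplecticGroup (Fin 2) K ⧸
    Subgroup.center (Matrix.symplecticGroup (Fin 2) K)) = 25920
  omega

theorem simple_psp43 (hK : Fintype.card K = 3) : IsSimpleGroup (Cfsg.PSp 2 K) :=
  Cfsg.Agent.S0270.result (F := K) 2 (by norm_num) (fun _ => by rw [hK])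

/-- `PSp₄(3)` is generated by two elements with the relations of `U₄(2)` -/
theorem sp_side (hK : Fintype.card K = 3) :
    ∃ a b : Cfsg.PSp 2 K, (∀ r ∈ TCD.U42.relsL, ev a b r = 1) ∧
      Subgroup.closure ({a, b} : Set (Cfsg.PSp 2 K)) = ⊤ := by
  classical
  let e3 : ZMod 3 ≃+* K := ZMod.ringEquivOfPrime K (by norm_num) hK
  let φ := phi3 (e3 : ZMod 3 →+* K)
  have hsimple : IsSimpleGroup (Cfsg.PSp 2 K) := simple_psp43 hK
  have hcard := card_psp43 hK
  have hfin : Finite (Cfsg.PSp 2 K) := Nat.finite_of_card_ne_zero (by rw [hcard]; norm_num)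
  refine ⟨φ A3, φ B3, ?_, ?_⟩
  · intro r hr
    have ia : φ A3 * φ A3i = 1 := by rw [← map_mul, inv3.1, map_one]
    have ib : φ B3 * φ B3i = 1 := by rw [← map_mul, inv3.2, map_one]
    rw [ev_eq_map_ev4 φ A3 A3i B3 B3i ia ib]
    apply phi3_eq_one
    have h := rel3m r hr
    rw [← W3_val] at h
    exact h
  · have hsurj : Function.Surjective φ :=
      (QuotientGroup.mk'_surjective _).comp (spMap_surj e3)
    have hmap : Subgroup.closure ({φ A3, φ B3} : Set (Cfsg.PSp 2 K)) =
        (Subgroup.closure ({A3, B3} : Set S3)).map φ := by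
      rw [MonoidHom.map_closure, Set.image_pair]
    rw [hmap]
    have hidx := Subgroup.index_map_dvd (Subgroup.closure ({A3, B3} : Set S3)) hsurj
    have hge := card_closure_ge
    have hmul := Subgroup.card_mul_index (Subgroup.closure ({A3, B3} : Set S3))
    rw [card_S3] at hmul
    have hi3 : (Subgroup.closure ({A3, B3} : Set S3)).index ≤ 3 := by
      by_contra hcon
      have h4 : 4 ≤ (Subgroup.closure ({A3, B3} : Set S3)).index := by omega
      have h5 := Nat.mul_le_mul hge h4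
      omega
    have hi0 : (Subgroup.closure ({A3, B3} : Set S3)).index ≠ 0 := by
      intro h0
      rw [h0] at hmul
      omega
    have hle : ((Subgroup.closure ({A3, B3} : Set S3)).map φ).index ≤ 3 :=
      (Nat.le_of_dvd (Nat.pos_of_ne_zero hi0) hidx).trans hi3
    exact eq_top_of_index_le _ 3 hle (by rw [hcard]; decide)

end main

end Cfsg.Agent.Helper17.U42
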