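import Mathlib
import Cfsg.Agent.Helper17.U42.SpGroup
import Cfsg.Agent.Helper17.U42.SUSide

/-!
# `PSU₄(2) ≅ PSp₄(3)` (helper17)
-/

set_option autoImplicit false

namespace Cfsg.Agent.Helper17.U42

open Cfsg.Agent.Helper17.J1 Cfsg.Agent.Helper17.L27

/-- `PSU₄(2) ≅ PSp₄(3)` -/
theorem psu42_iso_psp43 {F K : Type*} [Field F] [Fintype F] [Field K] [Fintype K]
    (hF : Fintype.card F = 4) (hK : Fintype.card K = 3) :
    Nonempty (Cfsg.PSU 4 F 2 ≃* Cfsg.PSp 2 K) := by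
  obtain ⟨a1, b1, hR1, hgen1⟩ := sp_side hK
  obtain ⟨a2, b2, hR2, hne⟩ := su_side hF
  have hs : IsSimpleGroup (Cfsg.PSp 2 K) := simple_psp43 hK
  have hfin1 : Finite (Cfsg.PSp 2 K) :=
    Nat.finite_of_card_ne_zero (by rw [card_psp43 hK]; norm_num)
  have hfin2 : Finite (Cfsg.PSU 4 F 2) :=
    Nat.finite_of_card_ne_zero (by rw [card_psu42 hF]; norm_num)
  obtain ⟨iso⟩ := iso_of_gens_gen 25920 TCD.U42.relsL (card_psp43 hK) (card_psu42 hF)
    (by norm_num) a1 b1 a2 b2 (fun D a b hgen hR => card_le_U42 a b hgen hR) hR1 hR2 hgen1 hne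
  exact ⟨iso.symm⟩

end Cfsg.Agent.Helper17.U42
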